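/-
Counting Sylow subgroups of prime order inside a subgroup.
-/
import Mathlib

set_option autoImplicit false

namespace Cfsg.Agent.Lib.PSL23

open Subgroup

theorem sylow_count {G : Type*} [Group G] [Finite G] {K P R Q : Subgroup G} {p : ℕ} [hp : Fact p.Prime]
    (hPK : P ≤ K) (hP : Nat.card P = p) (hK : ¬ p ^ 2 ∣ Nat.card K)
    (hQ : ∀ g ∈ K, g ∈ normalizer (P : Set G) → g ∈ Q)
    (hR : R ≤ K) (hRn : R ≤ normalizer (P : Set G)) :
    ∃ n d, Nat.card K = n * d ∧ n % p = 1 ∧ d ∣ Nat.card Q ∧ Nat.card R ∣ d := by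
  classical
  let P' : Subgroup ↥K := P.subgroupOf K
  have hP' : Nat.card P' = p := by
    rw [← hP]
    exact Nat.card_congr (subgroupOfEquivOfLe hPK).toEquiv
  have hpd : p ∣ Nat.card K := by
    rw [← hP]
    exact card_dvd_of_le hPK
  have hfac : (Nat.card K).factorization p = 1 := by
    obtain ⟨m, hm⟩ := hpd
    have hK0 : Nat.card K ≠ 0 := Nat.card_pos.ne'
    have hm0 : m ≠ 0 := by
      rintro rfl
      simp at hm
      exact hK0 hm
    have hpm : ¬ p ∣ m := by
      rintro ⟨c, rfl⟩
      apply hK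
      rw [hm]
      exact ⟨c, by ring⟩
    rw [hm, Nat.factorization_mul hp.out.ne_zero hm0, Finsupp.add_apply,
      hp.out.factorization_self, Nat.factorization_eq_zero_of_not_dvd hpm]
  let S : Sylow p ↥K := Sylow.ofCard P' (by rw [hP', hfac, pow_one])
  have hS : (S : Subgroup ↥K) = P' := Sylow.coe_ofCard _ _
  refine ⟨(normalizer ((S : Subgroup ↥K) : Set ↥K)).index,
    Nat.card (normalizer ((S : Subgroup ↥K) : Set ↥K)), ?_, ?_, ?_, ?_⟩
  · exact (index_mul_card _).symm
  · have h1 := card_sylow_modEq_one p ↥K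
    rw [S.card_eq_index_normalizer] at h1
    have h2 : 1 % p = 1 := Nat.mod_eq_of_lt hp.out.one_lt
    have h3 : (normalizer ((S : Subgroup ↥K) : Set ↥K)).index % p = 1 % p := h1
    rw [h3, h2]
  · rw [hS]
    have hle : (normalizer ((P' : Subgroup ↥K) : Set ↥K)).map K.subtype ≤ Q := by
      rintro _ ⟨⟨g, hg⟩, hgn, rfl⟩
      refine hQ g hg ?_
      rw [mem_normalizer_iff]
      intro h
      have hgn' := mem_normalizer_iff.1 hgn
      constructor
      · intro hh
        have h1 := (hgn' ⟨h, hPK hh⟩).1 (mem_subgroupOf.2 hh)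
        exact mem_subgroupOf.1 h1
      · intro hh
        have hhK : h ∈ K := by
          have h2 := hPK hh
          have h3 : g⁻¹ * (g * h * g⁻¹) * g ∈ K := K.mul_mem (K.mul_mem (K.inv_mem hg) h2) hg
          simpa [mul_assoc] using h3
        have h1 := (hgn' ⟨h, hhK⟩).2 (mem_subgroupOf.2 hh)
        exact mem_subgroupOf.1 h1
    have h4 := card_dvd_of_le hle
    rwa [card_map_of_injective K.subtype_injective] at h4
  · rw [hS]
    have hle : R.subgroupOf K ≤ normalizer ((P' : Subgroup ↥K) : Set ↥K) := by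
      rintro ⟨r, hr⟩ hrR
      have hrR' : r ∈ R := mem_subgroupOf.1 hrR
      have hrn := mem_normalizer_iff.1 (hRn hrR')
      rw [mem_normalizer_iff]
      rintro ⟨h, hh⟩
      constructor
      · intro h1
        exact mem_subgroupOf.2 ((hrn h).1 (mem_subgroupOf.1 h1))
      · intro h1
        exact mem_subgroupOf.2 ((hrn h).2 (mem_subgroupOf.1 h1))
    have h4 := card_dvd_of_le hle
    have h5 : Nat.card (R.subgroupOf K) = Nat.card R :=
      Nat.card_congr (subgroupOfEquivOfLe hR).toEquiv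
    rwa [h5] at h4

end Cfsg.Agent.Lib.PSL23
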