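/-
The group of the projective line modulo 23 inside the group of the code: generators.
-/
import Cfsg.Agent.Lib.M24.Tools
import Cfsg.Agent.Lib.PSL23.Sylow

set_option autoImplicit false
set_option maxRecDepth 100000

namespace Cfsg.Agent.Lib.PSL23

open Cfsg Cfsg.Agent.Lib.Golay Cfsg.Agent.Lib.M24 MulAction Subgroup

/-- The translation. -/
def tr : Equiv.Perm GolayPt := Equiv.optionCongr (Equiv.addRight (1 : ZMod 23))

/-- The multiplications. -/
def mu (u : (ZMod 23)ˣ) : Equiv.Perm GolayPt := Equiv.optionCongr (Units.mulLeft u)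

/-- The unit two. -/
def a2 : (ZMod 23)ˣ := ⟨2, 12, by decide, by decide⟩

@[simp] theorem tr_none : tr none = none := rfl
@[simp] theorem tr_some (x : ZMod 23) : tr (some x) = some (x + 1) := rfl
@[simp] theorem mu_none (u : (ZMod 23)ˣ) : mu u none = none := rfl
@[simp] theorem mu_some (u : (ZMod 23)ˣ) (x : ZMod 23) : mu u (some x) = some ((u : ZMod 23) * x) := rfl

theorem mu_mul (u v : (ZMod 23)ˣ) : mu (u * v) = mu u * mu v := by
  ext p : 1
  rcases p with _ | x
  · rfl
  · rw [Equiv.Perm.mul_apply, mu_some, mu_some, mu_some, Units.val_mul, mul_assoc]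

/-- The homomorphism. -/
def muHom : (ZMod 23)ˣ →* Equiv.Perm GolayPt := MonoidHom.mk' mu mu_mul

theorem mu_pow (u : (ZMod 23)ˣ) (k : ℕ) : mu (u ^ k) = mu u ^ k := map_pow muHom u k

theorem sq_pow_aux : ∀ u r : (ZMod 23)ˣ, u = r * r → ∃ k : Fin 11, u = a2 ^ (k : ℕ) := by decide +kernel

theorem sq_pow {u : (ZMod 23)ˣ} (hu : IsSquare u) : ∃ k : ℕ, u = a2 ^ k := by
  obtain ⟨r, hr⟩ := hu
  obtain ⟨k, hk⟩ := sq_pow_aux u r hr
  exact ⟨k, hk⟩

/-- The lists of the generators. -/
def trL : List ℕ := [1, 2, 3, 4, 5, 6, 7, 8, 9, 10, 11, 12, 13, 14, 15, 16, 17, 18, 19, 20, 21, 22, 0, 23]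
/-- The lists of the generators. -/
def a2L : List ℕ := [0, 2, 4, 6, 8, 10, 12, 14, 16, 18, 20, 22, 1, 3, 5, 7, 9, 11, 13, 15, 17, 19, 21, 23]
/-- The lists of the generators. -/
def invL : List ℕ := [23, 22, 11, 15, 17, 9, 19, 13, 20, 5, 16, 2, 21, 7, 18, 3, 10, 4, 14, 6, 8, 12, 1, 0]
/-- The list of the negation. -/
def negL : List ℕ := [0, 22, 21, 20, 19, 18, 17, 16, 15, 14, 13, 12, 11, 10, 9, 8, 7, 6, 5, 4, 3, 2, 1, 23]

theorem trL_perm : isPerm trL = true := by decide +kernel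
theorem a2L_perm : isPerm a2L = true := by decide +kernel
theorem invL_perm : isPerm invL = true := by decide +kernel
theorem negL_perm : isPerm negL = true := by decide +kernel

theorem tr_list : ∀ p, tr p = lp trL p := by decide +kernel
theorem a2_list : ∀ p, mu a2 p = lp a2L p := by decide +kernel
theorem inv_list : ∀ p, projInv p = lp invL p := by decide +kernel
theorem neg_list : ∀ p, mu (-1) p = lp negL p := by decide +kernel

theorem tr_mem : tr ∈ M24 := mem_M24_of_list trL_perm (by decide +kernel) tr_list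
theorem a2_mem : mu a2 ∈ M24 := mem_M24_of_list a2L_perm (by decide +kernel) a2_list
theorem inv_mem : projInv ∈ M24 := mem_M24_of_list invL_perm (by decide +kernel) inv_list

theorem neg_not_mem : mu (-1) ∉ M24 := by
  intro h
  rw [perm_eq_of_list negL_perm neg_list] at h
  have h1 := autCheck_of_mem_M24 negL_perm h
  exact absurd h1 (by decide +kernel)

/-- The squares. -/
abbrev sqS : Set (Equiv.Perm GolayPt) :=
  {g | ∃ u : (ZMod 23)ˣ, IsSquare u ∧ g = Equiv.optionCongr (Units.mulLeft u)}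

/-- The group of the line. -/
abbrev LL : Subgroup (Equiv.Perm GolayPt) :=
  closure ({Equiv.optionCongr (Equiv.addRight (1 : ZMod 23)), projInv} ∪ sqS)

/-- The stabiliser of the extra point in the group of the line. -/
abbrev AA : Subgroup (Equiv.Perm GolayPt) :=
  closure ({Equiv.optionCongr (Equiv.addRight (1 : ZMod 23))} ∪ sqS)

/-- The stabiliser of the extra point in the group of the code. -/
abbrev Mp : Subgroup (Equiv.Perm GolayPt) := M24 ⊓ stabilizer (Equiv.Perm GolayPt) (none : GolayPt)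

theorem sq_le {H : Subgroup (Equiv.Perm GolayPt)} (h : mu a2 ∈ H) : sqS ⊆ H := by
  rintro _ ⟨u, hu, rfl⟩
  obtain ⟨k, rfl⟩ := sq_pow hu
  show mu (a2 ^ k) ∈ H
  rw [mu_pow]
  exact H.pow_mem h k

theorem AA_le {H : Subgroup (Equiv.Perm GolayPt)} (h1 : tr ∈ H) (h2 : mu a2 ∈ H) : AA ≤ H := by
  rw [closure_le]
  rintro g (hg | hg)
  · rw [Set.mem_singleton_iff] at hg
    subst hg
    exact h1
  · exact sq_le h2 hg

theorem LL_le {H : Subgroup (Equiv.Perm GolayPt)} (h1 : tr ∈ H) (h2 : mu a2 ∈ H) (h3 : projInv ∈ H) :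
    LL ≤ H := by
  rw [closure_le]
  rintro g (hg | hg)
  · rcases hg with rfl | hg
    · exact h1
    · rw [Set.mem_singleton_iff] at hg
      subst hg
      exact h3
  · exact sq_le h2 hg

theorem tr_mem_AA : tr ∈ AA := subset_closure (Or.inl rfl)

theorem mu_mem_AA {u : (ZMod 23)ˣ} (hu : IsSquare u) : mu u ∈ AA :=
  subset_closure (Or.inr ⟨u, hu, rfl⟩)

theorem a2_square : IsSquare a2 := ⟨⟨5, 14, by decide, by decide⟩, by decide⟩

theorem a2_mem_AA : mu a2 ∈ AA := mu_mem_AA a2_square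

theorem tr_mem_LL : tr ∈ LL := subset_closure (Or.inl (Or.inl rfl))
theorem inv_mem_LL : projInv ∈ LL := subset_closure (Or.inl (Or.inr rfl))
theorem a2_mem_LL : mu a2 ∈ LL := subset_closure (Or.inr ⟨a2, a2_square, rfl⟩)

theorem AA_le_LL : AA ≤ LL := AA_le tr_mem_LL a2_mem_LL

theorem LL_le_M24 : LL ≤ M24 := LL_le tr_mem a2_mem inv_mem

theorem AA_le_Mp : AA ≤ Mp :=
  AA_le (mem_inf.2 ⟨tr_mem, rfl⟩) (mem_inf.2 ⟨a2_mem, rfl⟩)

theorem card_Mp : Nat.card Mp = 10200960 := by
  rw [← Nat.card_congr (stabEquivInf M24 (none : GolayPt)).toEquiv, card_stabilizer_M24]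

/-! ### The affine group -/

/-- The affine maps. -/
def aff (u : (ZMod 23)ˣ) (b : ZMod 23) : Equiv.Perm GolayPt :=
  Equiv.optionCongr ((Units.mulLeft u).trans (Equiv.addRight b))

@[simp] theorem aff_none (u : (ZMod 23)ˣ) (b : ZMod 23) : aff u b none = none := rfl
@[simp] theorem aff_some (u : (ZMod 23)ˣ) (b x : ZMod 23) :
    aff u b (some x) = some ((u : ZMod 23) * x + b) := rfl

theorem aff_mul (u v : (ZMod 23)ˣ) (b c : ZMod 23) :
    aff u b * aff v c = aff (u * v) ((u : ZMod 23) * c + b) := by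
  ext p : 1
  rcases p with _ | x
  · rfl
  · rw [Equiv.Perm.mul_apply, aff_some, aff_some, aff_some, Units.val_mul]
    congr 1
    ring

theorem aff_one : aff 1 0 = 1 := by
  ext p : 1
  rcases p with _ | x
  · rfl
  · rw [aff_some]
    simp

theorem aff_inv (u : (ZMod 23)ˣ) (b : ZMod 23) :
    (aff u b)⁻¹ = aff u⁻¹ (-(((u⁻¹ : (ZMod 23)ˣ) : ZMod 23) * b)) := by
  rw [inv_eq_iff_mul_eq_one, aff_mul, mul_inv_cancel]
  have h3 : (u : ZMod 23) * ((u⁻¹ : (ZMod 23)ˣ) : ZMod 23) = 1 := by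
    rw [← Units.val_mul, mul_inv_cancel, Units.val_one]
  have h4 : (u : ZMod 23) * -(((u⁻¹ : (ZMod 23)ˣ) : ZMod 23) * b) + b = 0 := by
    calc (u : ZMod 23) * -(((u⁻¹ : (ZMod 23)ˣ) : ZMod 23) * b) + b
        = -(((u : ZMod 23) * ((u⁻¹ : (ZMod 23)ˣ) : ZMod 23)) * b) + b := by ring
      _ = 0 := by
        rw [h3]
        ring
  rw [h4]
  exact aff_one

/-- The affine group. -/
def Af : Subgroup (Equiv.Perm GolayPt) where
  carrier := {g | ∃ u b, IsSquare u ∧ g = aff u b}
  mul_mem' := by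
    rintro _ _ ⟨u, b, hu, rfl⟩ ⟨v, c, hv, rfl⟩
    exact ⟨u * v, _, hu.mul hv, aff_mul u v b c⟩
  one_mem' := ⟨1, 0, IsSquare.one, aff_one.symm⟩
  inv_mem' := by
    rintro _ ⟨u, b, hu, rfl⟩
    exact ⟨u⁻¹, _, hu.inv, aff_inv u b⟩

theorem tr_pow_some (k : ℕ) (x : ZMod 23) : (tr ^ k) (some x) = some (x + k) := by
  induction k with
  | zero => simp
  | succ k ih =>
    rw [pow_succ', Equiv.Perm.mul_apply, ih, tr_some]
    congr 1
    push_cast
    ring

theorem tr_pow_none (k : ℕ) : (tr ^ k) none = none := by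
  induction k with
  | zero => simp
  | succ k ih =>
    rw [pow_succ', Equiv.Perm.mul_apply, ih, tr_none]

theorem aff_eq (u : (ZMod 23)ˣ) (b : ZMod 23) : aff u b = tr ^ b.val * mu u := by
  ext p : 1
  rcases p with _ | x
  · rw [Equiv.Perm.mul_apply, mu_none, tr_pow_none, aff_none]
  · rw [Equiv.Perm.mul_apply, mu_some, tr_pow_some, aff_some, ZMod.natCast_zmod_val]

theorem AA_eq_Af : AA = Af := by
  apply le_antisymm
  · apply AA_le
    · exact ⟨1, 1, IsSquare.one, by
        ext p : 1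
        rcases p with _ | x
        · rfl
        · rw [aff_some, tr_some]
          simp⟩
    · exact ⟨a2, 0, a2_square, by
        ext p : 1
        rcases p with _ | x
        · rfl
        · rw [aff_some, mu_some, add_zero]⟩
  · rintro _ ⟨u, b, hu, rfl⟩
    rw [aff_eq]
    exact AA.mul_mem (AA.pow_mem tr_mem_AA _) (mu_mem_AA hu)

theorem card_sq : Nat.card {u : (ZMod 23)ˣ // IsSquare u} = 11 := by
  classical
  rw [Nat.card_eq_fintype_card, Fintype.card_subtype]
  have h : (Finset.univ.filter fun u : (ZMod 23)ˣ => IsSquare u)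
      = (Finset.univ.filter fun u : (ZMod 23)ˣ => ∃ r : (ZMod 23)ˣ, u = r * r) := by
    ext u
    simp only [Finset.mem_filter, Finset.mem_univ, true_and]
    rfl
  rw [h]
  decide +kernel

theorem card_AA : Nat.card AA = 253 := by
  rw [AA_eq_Af]
  have e : {u : (ZMod 23)ˣ // IsSquare u} × ZMod 23 ≃ Af :=
    Equiv.ofBijective (fun x => ⟨aff x.1.1 x.2, x.1.1, x.2, x.1.2, rfl⟩) (by
      constructor
      · rintro ⟨⟨u, hu⟩, b⟩ ⟨⟨v, hv⟩, c⟩ h
        have h1 : aff u b = aff v c := congrArg Subtype.val h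
        have h2 := congrArg (fun p : Equiv.Perm GolayPt => p (some 0)) h1
        simp only [aff_some, mul_zero, zero_add, Option.some.injEq] at h2
        subst h2
        have h3 := congrArg (fun p : Equiv.Perm GolayPt => p (some 1)) h1
        simp only [aff_some, mul_one, Option.some.injEq, add_left_inj] at h3
        have h4 : u = v := Units.ext h3
        subst h4
        rfl
      · rintro ⟨_, u, b, hu, rfl⟩
        exact ⟨⟨⟨u, hu⟩, b⟩, rfl⟩)
  rw [← Nat.card_congr e, Nat.card_prod, card_sq, Nat.card_zmod]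

/-! ### The stabiliser of the extra point in the normaliser of the translation -/

theorem neg_square : ∀ u : (ZMod 23)ˣ, (∃ r : (ZMod 23)ˣ, u = r * r) ∨ ∃ r : (ZMod 23)ˣ, -u = r * r := by
  decide +kernel

theorem unit_of_ne : ∀ c : ZMod 23, c ≠ 0 → ∃ u : (ZMod 23)ˣ, (u : ZMod 23) = c := by decide +kernel

theorem val_ne_none {g : Equiv.Perm GolayPt} (h0 : g none = none) (x : ZMod 23) : ∃ y, g (some x) = some y := by
  rcases hv : g (some x) with _ | y
  · have := g.injective (hv.trans h0.symm)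
    simp at this
  · exact ⟨y, rfl⟩

theorem norm23 {g : Equiv.Perm GolayPt} (hg : g ∈ Mp) (hn : g ∈ normalizer ((zpowers tr : Subgroup _) : Set (Equiv.Perm GolayPt))) :
    g ∈ AA := by
  obtain ⟨hg1, hg0⟩ := mem_inf.1 hg
  have hg0' : g none = none := hg0
  have h1 := (mem_normalizer_iff.1 hn tr).1 (mem_zpowers tr)
  rw [← mem_powers_iff_mem_zpowers] at h1
  obtain ⟨k, hk⟩ := h1
  replace hk : tr ^ k = g * tr * g⁻¹ := hk
  choose h hh using val_ne_none hg0'
  have hrec : ∀ x, h (x + 1) = h x + k := by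
    intro x
    have h2 : (tr ^ k * g) (some x) = (g * tr) (some x) := by
      rw [hk]
      simp
    rw [Equiv.Perm.mul_apply, Equiv.Perm.mul_apply, hh, tr_pow_some, tr_some, hh] at h2
    exact (Option.some.inj h2).symm
  have hval : ∀ n : ℕ, h (n : ZMod 23) = h 0 + n * k := by
    intro n
    induction n with
    | zero => simp
    | succ n ih =>
      rw [Nat.cast_succ, hrec, ih]
      ring
  have hx : ∀ x, h x = (k : ZMod 23) * x + h 0 := by
    intro x
    have h3 := hval x.val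
    rw [ZMod.natCast_zmod_val] at h3
    rw [h3]
    ring
  have hk0 : (k : ZMod 23) ≠ 0 := by
    intro h0
    have h4 := hx 1
    have h5 := hx 0
    rw [h0] at h4
    have h6 : g (some 1) = g (some 0) := by
      rw [hh, hh, h4]
      simp
    have h7 := g.injective h6
    exact absurd (Option.some.inj h7) (by decide)
  obtain ⟨u, hu⟩ := unit_of_ne _ hk0
  have hgeq : g = aff u (h 0) := by
    ext p : 1
    rcases p with _ | x
    · rw [hg0', aff_none]
    · rw [hh, aff_some, hx, hu]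
  rcases neg_square u with hs | hs
  · rw [hgeq, AA_eq_Af]
    exact ⟨u, _, hs, rfl⟩
  · exfalso
    have hmu : mu u ∈ M24 := by
      have h5 : mu u = (tr ^ (h 0).val)⁻¹ * g := by
        rw [eq_inv_mul_iff_mul_eq, hgeq, aff_eq]
      rw [h5]
      exact M24.mul_mem (M24.inv_mem (M24.pow_mem tr_mem _)) hg1
    have hmn : mu (-u) ∈ M24 := (mem_inf.1 (AA_le_Mp (mu_mem_AA hs))).1
    have h6 : mu (-1) = mu u * (mu (-u))⁻¹ := by
      rw [eq_mul_inv_iff_mul_eq, ← mu_mul]
      congr 1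
      simp
    apply neg_not_mem
    rw [h6]
    exact M24.mul_mem hmu (M24.inv_mem hmn)

end Cfsg.Agent.Lib.PSL23
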