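/-
The normaliser of a subgroup of order eleven.
-/
import Cfsg.Agent.Lib.PSL23.Basic

set_option autoImplicit false
set_option maxRecDepth 100000

namespace Cfsg.Agent.Lib.PSL23

open Cfsg Cfsg.Agent.Lib.Golay Cfsg.Agent.Lib.M24 MulAction Subgroup

/-- The discrete logarithm. -/
def dlL : List ℕ := [0, 0, 1, 8, 2, 6, 9, 4, 3, 5, 7, 10, 10, 7, 5, 3, 4, 9, 6, 2, 8, 1, 0]

/-- The mask of the non-squares. -/
def sgM : ℕ := 8047776

/-- The image of a point under a candidate. -/
def cF (e y z i : ℕ) : ℕ :=
  if i = 23 then 23 else if i = 0 then 0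
  else if sgM.testBit i = true then (z * 2 ^ (e * lk dlL i)) % 23 else (y * 2 ^ (e * lk dlL i)) % 23

/-- A candidate. -/
def cand (e y z : ℕ) : List ℕ := (List.range 24).map (cF e y z)

/-- All candidates. -/
def allC : List (List ℕ) :=
  (List.range 11).flatMap fun e => (List.range 23).flatMap fun y => (List.range 23).map fun z => cand e y z

/-- The candidates in the group. -/
def goodC : List (List ℕ) := allC.filter fun c => autCheck c && isPerm c

theorem goodC_len : goodC.length = 55 := by decide +kernel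

theorem lk_map_aux (f : ℕ → ℕ) (b : List ℕ) {k : ℕ} (h : k < b.length) : lk (b.map f) k = f (lk b k) := by
  induction b generalizing k with
  | nil => simp at h
  | cons t ts ih =>
    cases k with
    | zero => rfl
    | succ k => exact ih (by simpa using h)

theorem lk_cand (e y z : ℕ) {i : ℕ} (hi : i < 24) : lk (cand e y z) i = cF e y z i := by
  rw [cand, lk_map_aux _ _ (by simpa using hi)]
  congr 1
  have := lk_idL ⟨i, hi⟩
  exact this

theorem dec_ok : ∀ x : ZMod 23, x ≠ 0 → x = 2 ^ (lk dlL x.val) * (if sgM.testBit x.val = true then -1 else 1) := by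
  decide +kernel

theorem val_pow_mul (N : ℕ) (v : ZMod 23) : ((2 : ZMod 23) ^ N * v).val = (v.val * 2 ^ N) % 23 := by
  have h : (2 : ZMod 23) ^ N = ((2 ^ N : ℕ) : ZMod 23) := by
    push_cast
    rfl
  rw [h, ZMod.val_mul, ZMod.val_natCast, Nat.mod_mul_mod, Nat.mul_comm]

theorem fix_zero : ∀ e : Fin 11, (e : ℕ) ≠ 0 → ∀ v : ZMod 23, v = 2 ^ (e : ℕ) * v → v = 0 := by decide +kernel

theorem a2_order : mu a2 ^ 11 = 1 := by
  rw [← mu_pow]
  have h : a2 ^ 11 = 1 := by decide +kernel
  rw [h]
  exact map_one muHom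

theorem mu_a2_ne : mu a2 ≠ 1 := by
  intro h
  have h1 := congrArg (fun p : Equiv.Perm GolayPt => p (some 1)) h
  simp only [mu_some, Equiv.Perm.one_apply] at h1
  exact absurd (Option.some.inj h1) (by decide)

/-- An element normalising the subgroup of order eleven comes from a candidate. -/
theorem cand_of_norm {g : Equiv.Perm GolayPt} (hg : g ∈ Mp)
    (hn : g ∈ normalizer ((zpowers (mu a2) : Subgroup _) : Set (Equiv.Perm GolayPt))) :
    ∃ c ∈ goodC, g = perm c := by
  obtain ⟨hg1, hg0⟩ := mem_inf.1 hg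
  have hg0' : g none = none := hg0
  have h1 := (mem_normalizer_iff.1 hn (mu a2)).1 (mem_zpowers _)
  rw [← mem_powers_iff_mem_zpowers] at h1
  obtain ⟨k, hk⟩ := h1
  replace hk : mu a2 ^ k = g * mu a2 * g⁻¹ := hk
  -- the exponent below the order
  have hk' : mu a2 ^ (k % 11) = g * mu a2 * g⁻¹ := by
    rw [← hk]
    exact (pow_eq_pow_mod k a2_order).symm
  set e := k % 11 with he
  have he11 : e < 11 := Nat.mod_lt _ (by norm_num)
  have he0 : e ≠ 0 := by
    intro h0
    rw [h0, pow_zero] at hk'
    apply mu_a2_ne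
    have h3 : g * mu a2 * g⁻¹ = g * 1 * g⁻¹ := by
      rw [← hk']
      simp
    have h4 := mul_right_cancel h3
    exact mul_left_cancel h4
  choose h hh using val_ne_none hg0'
  have hrec : ∀ x, h (2 * x) = 2 ^ e * h x := by
    intro x
    have h2 : (mu a2 ^ e * g) (some x) = (g * mu a2) (some x) := by
      rw [hk']
      simp
    rw [Equiv.Perm.mul_apply, Equiv.Perm.mul_apply, hh, ← mu_pow, mu_some, mu_some, hh] at h2
    have h3 := Option.some.inj h2
    rw [show ((a2 : (ZMod 23)ˣ) : ZMod 23) = 2 from rfl] at h3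
    rw [← h3]
    congr 1
  have h00 : h 0 = 0 := by
    apply fix_zero ⟨e, he11⟩ he0
    have h3 := hrec 0
    rwa [mul_zero] at h3
  have hpow : ∀ (n : ℕ) (x : ZMod 23), h (2 ^ n * x) = 2 ^ (e * n) * h x := by
    intro n x
    induction n with
    | zero => simp
    | succ n ih =>
      rw [pow_succ', mul_assoc, hrec, ih, ← mul_assoc, ← pow_add]
      congr 2
      ring
  -- the values
  let y := (h 1).val
  let z := (h (-1)).val
  have hy : y < 23 := ZMod.val_lt _
  have hz : z < 23 := ZMod.val_lt _
  have hval : ∀ i : ℕ, i < 24 → idx (g (pt i)) = cF e y z i := by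
    intro i hi
    by_cases h23 : i = 23
    · subst h23
      have h5 : pt 23 = none := rfl
      rw [h5, hg0']
      rfl
    · have hi23 : i < 23 := by omega
      by_cases h0 : i = 0
      · subst h0
        have h5 : pt 0 = some 0 := rfl
        rw [h5, hh, h00]
        rfl
      · obtain ⟨x, hxv, hpt⟩ : ∃ x : ZMod 23, x.val = i ∧ pt i = some x :=
          ⟨(⟨i, hi23⟩ : Fin 23), rfl, dif_pos hi23⟩
        have hx0 : x ≠ 0 := by
          intro hx
          apply h0
          rw [← hxv, hx]
          rfl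
        have hdec := dec_ok x hx0
        rw [hxv] at hdec
        rw [hpt, hh]
        show (h x).val = _
        rw [cF, if_neg h23, if_neg h0]
        by_cases hs : sgM.testBit i = true
        · rw [if_pos hs] at hdec ⊢
          have h6 : h x = 2 ^ (e * lk dlL i) * h (-1) := by
            rw [← hpow, ← hdec]
          rw [h6, val_pow_mul]
        · rw [if_neg hs] at hdec ⊢
          have h6 : h x = 2 ^ (e * lk dlL i) * h 1 := by
            rw [← hpow, ← hdec]
          rw [h6, val_pow_mul]
  let c := cand e y z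
  have hc : ∀ p, idx (g p) = lk c (idx p) := by
    intro p
    have h7 := hval (idx p) (idx_lt p)
    rw [pt_idx] at h7
    rw [h7, lk_cand _ _ _ (idx_lt p)]
  have hperm : isPerm c = true := by
    unfold isPerm
    simp only [Bool.and_eq_true]
    refine ⟨⟨?_, ?_⟩, ?_⟩
    · show Nat.beq (List.map _ (List.range 24)).length 24 = true
      simp
    · apply List.all_eq_true.2
      intro x hx
      obtain ⟨i, hi, rfl⟩ := exists_lk_of_mem hx
      have hi' : i < 24 := by simpa [c, cand] using hi
      have h8 := hc (pt i)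
      rw [idx_pt hi'] at h8
      rw [← h8]
      exact Eq.mpr Nat.blt_eq (idx_lt _)
    · apply List.all_eq_true.2
      intro i hi
      have hi' : i < 24 := List.mem_range.1 hi
      apply memB_iff.2
      have h8 := hc (g⁻¹ (pt i))
      rw [show g (g⁻¹ (pt i)) = pt i from g.apply_symm_apply _, idx_pt hi'] at h8
      rw [h8]
      apply lk_mem_of_lt
      simpa [c, cand] using idx_lt _
  have hgc : g = perm c := by
    apply perm_eq_of_list hperm
    intro p
    rw [Cfsg.Agent.Lib.Golay.lp, ← hc, pt_idx]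
  have hauto : autCheck c = true := autCheck_of_mem_M24 hperm (hgc ▸ hg1)
  refine ⟨c, ?_, hgc⟩
  apply List.mem_filter.2
  refine ⟨?_, by rw [hauto, hperm]; rfl⟩
  simp only [allC, List.mem_flatMap, List.mem_map, List.mem_range]
  exact ⟨e, he11, y, hy, z, hz, rfl⟩

/-- The normaliser in the stabiliser. -/
abbrev Qn : Subgroup (Equiv.Perm GolayPt) :=
  Mp ⊓ normalizer ((zpowers (mu a2) : Subgroup _) : Set (Equiv.Perm GolayPt))

theorem card_Qn_le : Nat.card Qn ≤ 55 := by
  classical
  have h1 : (Qn : Set (Equiv.Perm GolayPt)) ⊆ ↑(goodC.toFinset.image perm) := by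
    intro g hg
    obtain ⟨c, hc, rfl⟩ := cand_of_norm (mem_inf.1 hg).1 (mem_inf.1 hg).2
    simp only [Finset.coe_image, Set.mem_image, Finset.mem_coe, List.mem_toFinset]
    exact ⟨c, hc, rfl⟩
  have h2 := Set.ncard_le_ncard h1 (Finset.finite_toSet _)
  rw [Set.ncard_coe_finset] at h2
  have h3 : Nat.card Qn = (Qn : Set (Equiv.Perm GolayPt)).ncard := by
    rw [← Nat.card_coe_set_eq]
    rfl
  rw [h3]
  calc _ ≤ _ := h2
    _ ≤ goodC.toFinset.card := Finset.card_image_le
    _ ≤ goodC.length := List.toFinset_card_le _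
    _ = 55 := goodC_len

theorem card_zpow_a2 : Nat.card (zpowers (mu a2)) = 11 := by
  haveI : Fact (Nat.Prime 11) := ⟨by norm_num⟩
  rw [Nat.card_zpowers]
  exact orderOf_eq_prime a2_order mu_a2_ne

end Cfsg.Agent.Lib.PSL23
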