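/-
Maximality of the affine group and of the group of the projective line.
-/
import Cfsg.Agent.Lib.PSL23.Norm11

set_option autoImplicit false
set_option maxRecDepth 100000

namespace Cfsg.Agent.Lib.PSL23

open Cfsg Cfsg.Agent.Lib.Golay Cfsg.Agent.Lib.M24 MulAction Subgroup

theorem zpow_le_Qn : zpowers (mu a2) ≤ Qn := by
  rw [zpowers_le]
  exact mem_inf.2 ⟨AA_le_Mp a2_mem_AA, le_normalizer (mem_zpowers _)⟩

theorem card_Qn : Nat.card Qn = 55 := by
  haveI : Fact (Nat.Prime 11) := ⟨by norm_num⟩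
  obtain ⟨n, d, h1, h2, h3, h4⟩ := sylow_count (G := Equiv.Perm GolayPt) (K := Mp)
    (P := zpowers (mu a2)) (R := Qn) (Q := Qn) (p := 11)
    (zpowers_le.2 (AA_le_Mp a2_mem_AA)) card_zpow_a2 (by rw [card_Mp]; norm_num)
    (fun g hg hn => mem_inf.2 ⟨hg, hn⟩) inf_le_left inf_le_right
  have hd : d = Nat.card Qn := Nat.dvd_antisymm h3 h4
  have h11 : 11 ∣ Nat.card Qn := by
    rw [← card_zpow_a2]
    exact card_dvd_of_le zpow_le_Qn
  rw [card_Mp, hd] at h1
  have hle := card_Qn_le
  obtain ⟨q, hq⟩ := h11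
  rw [hq] at h1 hle ⊢
  have hq5 : q ≤ 5 := by omega
  interval_cases q <;> omega

theorem num_dvd : ∀ n ∈ Nat.divisors 40320, n % 23 = 1 →
    (n % 11 = 1 ∨ (n % 5 = 0 ∧ (n / 5) % 11 = 1)) → n = 1 ∨ n = 40320 := by decide +kernel

theorem numerics {c n1 n2 d2 : ℕ} (h1 : c = n1 * 253) (hn1 : n1 % 23 = 1) (h2 : c = n2 * d2)
    (hn2 : n2 % 11 = 1) (hd : d2 = 11 ∨ d2 = 55) (hdvd : c ∣ 10200960) : c = 253 ∨ c = 10200960 := by
  have hn : n1 ∣ 40320 := by
    rw [h1] at hdvd
    exact Nat.dvd_of_mul_dvd_mul_right (by norm_num : 0 < 253) (by simpa using hdvd)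
  have hmem : n1 ∈ Nat.divisors 40320 := Nat.mem_divisors.2 ⟨hn, by norm_num⟩
  have hcase : n1 % 11 = 1 ∨ (n1 % 5 = 0 ∧ (n1 / 5) % 11 = 1) := by
    rcases hd with rfl | rfl
    · left
      omega
    · right
      omega
  rcases num_dvd n1 hmem hn1 hcase with rfl | rfl
  · left
    omega
  · right
    omega

theorem mem_norm_of_conj {G : Type*} [Group G] [Finite G] {x g : G} (h : g * x * g⁻¹ ∈ zpowers x) :
    g ∈ normalizer ((zpowers x : Subgroup G) : Set G) := by
  let c : G →* G := (MulAut.conj g).toMonoidHom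
  have hc : ∀ y, c y = g * y * g⁻¹ := fun _ => rfl
  have hinj : Function.Injective c := (MulAut.conj g).injective
  have h1 : (zpowers x).map c ≤ zpowers x := by
    rw [MonoidHom.map_zpowers, zpowers_le, hc]
    exact h
  have h2 : (zpowers x).map c = zpowers x :=
    eq_of_le_of_card_ge h1 (by rw [card_map_of_injective hinj])
  rw [mem_normalizer_iff]
  intro y
  constructor
  · intro hy
    rw [← hc, ← h2]
    exact mem_map_of_mem c hy
  · intro hy
    rw [← hc, ← h2] at hy
    obtain ⟨z, hz, e⟩ := hy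
    rwa [← hinj e]

theorem tr_pow23 : tr ^ 23 = 1 := by
  ext p : 1
  rcases p with _ | x
  · rw [tr_pow_none]
    rfl
  · rw [tr_pow_some]
    have h : ((23 : ℕ) : ZMod 23) = 0 := ZMod.natCast_self 23
    rw [h, add_zero]
    rfl

theorem tr_ne : tr ≠ 1 := by
  intro h
  have h1 := congrArg (fun p : Equiv.Perm GolayPt => p (some 0)) h
  simp only [tr_some, Equiv.Perm.one_apply] at h1
  exact absurd (Option.some.inj h1) (by decide)

theorem card_zpow_tr : Nat.card (zpowers tr) = 23 := by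
  haveI : Fact (Nat.Prime 23) := ⟨by norm_num⟩
  rw [Nat.card_zpowers]
  exact orderOf_eq_prime tr_pow23 tr_ne

theorem conj_tr : mu a2 * tr * (mu a2)⁻¹ = tr ^ 2 := by
  rw [mul_inv_eq_iff_eq_mul]
  ext p : 1
  rcases p with _ | x
  · rfl
  · simp only [Equiv.Perm.mul_apply, mu_some, tr_some, tr_pow_some]
    congr 1
    show (2 : ZMod 23) * (x + 1) = 2 * x + ((2 : ℕ) : ZMod 23)
    push_cast
    ring

theorem AA_le_norm : AA ≤ normalizer ((zpowers tr : Subgroup _) : Set (Equiv.Perm GolayPt)) := by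
  apply AA_le
  · exact le_normalizer (mem_zpowers _)
  · apply mem_norm_of_conj
    rw [conj_tr]
    exact pow_mem (mem_zpowers _) 2

/-- The main dichotomy. -/
theorem coatom_main {K : Subgroup (Equiv.Perm GolayPt)} (hA : AA ≤ K) (hK : K ≤ Mp) :
    K = AA ∨ K = Mp := by
  have hc : Nat.card K ∣ 10200960 := card_Mp ▸ card_dvd_of_le hK
  haveI : Fact (Nat.Prime 23) := ⟨by norm_num⟩
  haveI : Fact (Nat.Prime 11) := ⟨by norm_num⟩
  have hns : ∀ p : ℕ, ¬ p ^ 2 ∣ 10200960 → ¬ p ^ 2 ∣ Nat.card K :=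
    fun p hp h => hp (h.trans hc)
  obtain ⟨n1, d1, h1, h2, h3, h4⟩ := sylow_count (K := K) (P := zpowers tr) (R := AA) (Q := AA) (p := 23)
    (zpowers_le.2 (hA tr_mem_AA)) card_zpow_tr (hns 23 (by norm_num))
    (fun g hg hn => norm23 (hK hg) hn) hA AA_le_norm
  have hd1 : d1 = 253 := by
    rw [card_AA] at h3 h4
    exact Nat.dvd_antisymm h3 h4
  obtain ⟨n2, d2, h5, h6, h7, h8⟩ := sylow_count (K := K) (P := zpowers (mu a2)) (R := zpowers (mu a2))
    (Q := Qn) (p := 11) (zpowers_le.2 (hA a2_mem_AA)) card_zpow_a2 (hns 11 (by norm_num))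
    (fun g hg hn => mem_inf.2 ⟨hK hg, hn⟩) (zpowers_le.2 (hA a2_mem_AA)) (le_normalizer)
  rw [card_Qn] at h7
  rw [card_zpow_a2] at h8
  have hd2 : d2 = 11 ∨ d2 = 55 := by
    obtain ⟨q, rfl⟩ := h8
    have hq : q ∣ 5 := Nat.dvd_of_mul_dvd_mul_left (by norm_num : 0 < 11) (by simpa using h7)
    rcases (Nat.dvd_prime (by norm_num)).1 hq with rfl | rfl
    · left
      rfl
    · right
      rfl
  rcases numerics (h1.trans (by rw [hd1])) h2 h5 h6 hd2 hc with e | e
  · left
    exact (eq_of_le_of_card_ge hA (by rw [card_AA, e])).symm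
  · right
    exact eq_of_le_of_card_ge hK (by rw [card_Mp, e])

/-! ### An invariant of the group of the line -/

/-- The mask of squares. -/
def qrM : ℕ := 340830

/-- Being a square. -/
def qrN (n : ℕ) : Bool := qrM.testBit (n % 23)

/-- The invariant of triples. -/
def chiN (i j k : ℕ) : Bool :=
  if i = 23 then qrN (k + 23 - j)
  else if j = 23 then qrN (i + 23 - k)
  else if k = 23 then qrN (j + 23 - i)
  else qrN ((i + 23 - j) * (j + 23 - k) * (k + 23 - i))

/-- The check for a permutation given as a list. -/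
def chkL (l : List ℕ) : Bool :=
  (List.range 24).all fun i => (List.range 24).all fun j => (List.range 24).all fun k =>
    Nat.beq i j || Nat.beq j k || Nat.beq i k || (chiN (lk l i) (lk l j) (lk l k) == chiN i j k)

/-- The invariant of triples of points. -/
def chiP (p q r : GolayPt) : Bool := chiN (idx p) (idx q) (idx r)

/-- The permutations preserving the invariant. -/
def XX : Subgroup (Equiv.Perm GolayPt) where
  carrier := {g | ∀ p q r, p ≠ q → q ≠ r → p ≠ r → chiP (g p) (g q) (g r) = chiP p q r}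
  mul_mem' := by
    intro a b ha hb p q r h1 h2 h3
    rw [Equiv.Perm.mul_apply, Equiv.Perm.mul_apply, Equiv.Perm.mul_apply,
      ha _ _ _ (b.injective.ne h1) (b.injective.ne h2) (b.injective.ne h3), hb p q r h1 h2 h3]
  one_mem' := fun _ _ _ _ _ _ => rfl
  inv_mem' := by
    intro g hg p q r h1 h2 h3
    have inj := (g⁻¹ : Equiv.Perm GolayPt).injective
    have h4 := hg (g⁻¹ p) (g⁻¹ q) (g⁻¹ r) (inj.ne h1) (inj.ne h2) (inj.ne h3)
    rw [show g (g⁻¹ p) = p from g.apply_symm_apply p, show g (g⁻¹ q) = q from g.apply_symm_apply q,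
      show g (g⁻¹ r) = r from g.apply_symm_apply r] at h4
    exact h4.symm

theorem idx_ne {p q : GolayPt} (h : p ≠ q) : idx p ≠ idx q := by
  intro e
  apply h
  rw [← pt_idx p, ← pt_idx q, e]

theorem mem_XX_of_list {g : Equiv.Perm GolayPt} {l : List ℕ} (hperm : isPerm l = true)
    (hg : ∀ p, g p = lp l p) (hc : chkL l = true) : g ∈ XX := by
  intro p q r h1 h2 h3
  have hi : ∀ p, idx (g p) = lk l (idx p) := by
    intro p
    rw [hg, Cfsg.Agent.Lib.Golay.lp, idx_pt (isPerm_lt hperm (idx_lt p))]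
  unfold chiP
  rw [hi, hi, hi]
  have h4 := List.all_eq_true.1 (List.all_eq_true.1 (List.all_eq_true.1 hc (idx p)
    (List.mem_range.2 (idx_lt p))) (idx q) (List.mem_range.2 (idx_lt q))) (idx r)
    (List.mem_range.2 (idx_lt r))
  simp only [Bool.or_eq_true] at h4
  rcases h4 with ((h4 | h4) | h4) | h4
  · exact absurd (Nat.eq_of_beq_eq_true h4) (idx_ne h1)
  · exact absurd (Nat.eq_of_beq_eq_true h4) (idx_ne h2)
  · exact absurd (Nat.eq_of_beq_eq_true h4) (idx_ne h3)
  · exact beq_iff_eq.1 h4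

theorem LL_le_XX : LL ≤ XX :=
  LL_le (mem_XX_of_list trL_perm tr_list (by decide +kernel))
    (mem_XX_of_list a2L_perm a2_list (by decide +kernel))
    (mem_XX_of_list invL_perm inv_list (by decide +kernel))

theorem exists_not_XX : ∃ g ∈ Mp, g ∉ XX := by
  obtain ⟨g, hg, hgf⟩ := exists_map_on (u := {none, some 0, some 1}) (by decide)
    (fun x => if x = some 0 then some 1 else if x = some 1 then some 0 else x)
    (by
      intro x hx y hy hxy
      simp only [Finset.coe_insert, Finset.coe_singleton, Set.mem_insert_iff,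
        Set.mem_singleton_iff] at hx hy
      rcases hx with rfl | rfl | rfl <;> rcases hy with rfl | rfl | rfl <;>
        first | rfl | (exact absurd hxy (by decide)))
  have h0 : g none = none := hgf none (by decide)
  have h1 : g (some 0) = some 1 := hgf (some 0) (by decide)
  have h2 : g (some 1) = some 0 := hgf (some 1) (by decide)
  refine ⟨g, mem_inf.2 ⟨hg, h0⟩, ?_⟩
  intro hX
  have h3 := hX none (some 0) (some 1) (by decide) (by decide) (by decide)
  rw [h0, h1, h2] at h3
  exact absurd h3 (by decide +kernel)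

theorem LL_inf : LL ⊓ stabilizer (Equiv.Perm GolayPt) (none : GolayPt) = AA := by
  have hA : AA ≤ LL ⊓ stabilizer (Equiv.Perm GolayPt) (none : GolayPt) :=
    le_inf AA_le_LL (fun g hg => (mem_inf.1 (AA_le_Mp hg)).2)
  have hK : LL ⊓ stabilizer (Equiv.Perm GolayPt) (none : GolayPt) ≤ Mp :=
    inf_le_inf_right _ LL_le_M24
  rcases coatom_main hA hK with e | e
  · exact e
  · exfalso
    obtain ⟨g, hg, hgX⟩ := exists_not_XX
    rw [← e] at hg
    exact hgX (LL_le_XX (mem_inf.1 hg).1)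

theorem card_trans {H : Subgroup (Equiv.Perm GolayPt)} (h1 : tr ∈ H) (h2 : projInv ∈ H) :
    Nat.card H = 24 * Nat.card ↥(H ⊓ stabilizer (Equiv.Perm GolayPt) (none : GolayPt)) := by
  have horb : orbit ↥H (none : GolayPt) = Set.univ := by
    ext v
    simp only [Set.mem_univ, iff_true]
    rcases v with _ | b
    · exact ⟨1, rfl⟩
    · refine ⟨⟨tr ^ b.val * projInv, H.mul_mem (H.pow_mem h1 _) h2⟩, ?_⟩
      show (tr ^ b.val * projInv) none = some b
      rw [Equiv.Perm.mul_apply]
      show (tr ^ b.val) (some 0) = some b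
      rw [tr_pow_some, ZMod.natCast_zmod_val, zero_add]
  have h3 := index_stabilizer ↥H (none : GolayPt)
  have h24 : Nat.card GolayPt = 24 := by simp [ZMod.card]
  rw [horb, Set.ncard_univ, h24] at h3
  have h4 := Subgroup.card_mul_index (stabilizer ↥H (none : GolayPt))
  rw [h3, Nat.card_congr (stabEquivInf H (none : GolayPt)).toEquiv] at h4
  rw [← h4, mul_comm]

theorem card_LL : Nat.card LL = 6072 := by
  rw [card_trans tr_mem_LL inv_mem_LL, LL_inf, card_AA]

theorem coatom_LL : IsCoatom (LL.subgroupOf M24) := by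
  refine ⟨?_, ?_⟩
  · intro h
    have h1 : M24 ≤ LL := subgroupOf_eq_top.1 h
    have h2 := Subgroup.card_le_of_le h1
    rw [card_M24, card_LL] at h2
    omega
  · intro Y hY
    have hLH : LL ≤ Y.map M24.subtype := fun g hg =>
      ⟨⟨g, LL_le_M24 hg⟩, hY.le (mem_subgroupOf.2 hg), rfl⟩
    have hHM : Y.map M24.subtype ≤ M24 := map_subtype_le Y
    have hKA : AA ≤ Y.map M24.subtype ⊓ stabilizer (Equiv.Perm GolayPt) (none : GolayPt) :=
      le_inf (AA_le_LL.trans hLH) (fun g hg => (mem_inf.1 (AA_le_Mp hg)).2)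
    have hKM : Y.map M24.subtype ⊓ stabilizer (Equiv.Perm GolayPt) (none : GolayPt) ≤ Mp :=
      inf_le_inf_right _ hHM
    have hc := card_trans (hLH tr_mem_LL) (hLH inv_mem_LL)
    rcases coatom_main hKA hKM with e | e
    · exfalso
      rw [e, card_AA] at hc
      have h1 : LL = Y.map M24.subtype := eq_of_le_of_card_ge hLH (by rw [card_LL, hc])
      apply hY.2
      intro y hy
      apply mem_subgroupOf.2
      rw [h1]
      exact ⟨y, hy, rfl⟩
    · rw [e, card_Mp] at hc
      have h1 : Y.map M24.subtype = M24 := eq_of_le_of_card_ge hHM (by rw [card_M24, hc])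
      rw [eq_top_iff]
      rintro ⟨g, hg⟩ -
      have hg' := hg
      rw [← h1] at hg'
      obtain ⟨z, hz, e2⟩ := hg'
      have h2 : z = ⟨g, hg⟩ := Subtype.ext e2
      rwa [← h2]

theorem coatom_AA :
    IsCoatom ((AA.subgroupOf M24).subgroupOf (stabilizer M24 (none : GolayPt))) := by
  have hmk : ∀ g, g ∈ Mp → ∃ x : ↥(stabilizer M24 (none : GolayPt)), x.1.1 = g := by
    intro g hg
    obtain ⟨h1, h2⟩ := mem_inf.1 hg
    exact ⟨⟨⟨g, h1⟩, h2⟩, rfl⟩
  have hmem : ∀ x : ↥(stabilizer M24 (none : GolayPt)), x.1.1 ∈ Mp := fun x =>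
    mem_inf.2 ⟨x.1.2, x.2⟩
  refine ⟨?_, ?_⟩
  · intro h
    have h1 : Mp ≤ AA := by
      intro g hg
      obtain ⟨x, rfl⟩ := hmk g hg
      have h2 : x ∈ (AA.subgroupOf M24).subgroupOf (stabilizer M24 (none : GolayPt)) := by
        rw [h]
        trivial
      exact mem_subgroupOf.1 (mem_subgroupOf.1 h2)
    have h2 := Subgroup.card_le_of_le h1
    rw [card_Mp, card_AA] at h2
    omega
  · intro Y hY
    let K : Subgroup (Equiv.Perm GolayPt) :=
      (Y.map (stabilizer M24 (none : GolayPt)).subtype).map M24.subtype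
    have hKmem : ∀ x : ↥(stabilizer M24 (none : GolayPt)), x.1.1 ∈ K ↔ x ∈ Y := by
      intro x
      constructor
      · rintro ⟨z, ⟨w, hw, rfl⟩, e⟩
        have h2 : w = x := Subtype.ext (Subtype.ext e)
        rwa [← h2]
      · intro hx
        exact ⟨x.1, ⟨x, hx, rfl⟩, rfl⟩
    have hAK : AA ≤ K := by
      intro g hg
      obtain ⟨x, rfl⟩ := hmk g (AA_le_Mp hg)
      rw [hKmem]
      exact hY.le (mem_subgroupOf.2 (mem_subgroupOf.2 hg))
    have hKM : K ≤ Mp := by
      rintro _ ⟨z, ⟨w, hw, rfl⟩, rfl⟩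
      exact hmem w
    rcases coatom_main hAK hKM with e | e
    · exfalso
      apply hY.2
      intro y hy
      apply mem_subgroupOf.2
      apply mem_subgroupOf.2
      rw [← e]
      exact (hKmem y).2 hy
    · rw [eq_top_iff]
      intro x _
      rw [← hKmem, e]
      exact hmem x

end Cfsg.Agent.Lib.PSL23
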